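import Cfsg.Agent.Lib.LargeExtra.Out

/-! The group `2^{1+2n}_+ . O⁺_{2n}(2)` as a normalizer in `GL(2^n, 3)`. -/

set_option autoImplicit false
open Subgroup Cfsg Module

namespace H95
universe u v

/-- transport of a presentation along a group isomorphism -/
def Pres.congr {E E' : Type*} [Group E] [Group E'] {z : E} {V : Type v} [AddCommGroup V]
    [Module (ZMod 2) V] (P : Pres E z V) (e : E ≃* E') : Pres E' (e z) V where
  π x := P.π (e.symm x)
  π_mul x y := by rw [map_mul, P.π_mul]
  surj := P.surj.comp e.symm.surjective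
  ker x := by
    rw [P.ker, e.symm_apply_eq, e.symm_apply_eq, map_one]
  z_ne := fun h => P.z_ne (e.injective (h.trans (map_one e).symm))
  q := P.q
  sq x := by
    obtain ⟨x, rfl⟩ := e.surjective x
    rw [e.symm_apply_apply, ← map_mul, P.sq]
    exact map_zp e.toMonoidHom _

namespace Cliff
variable (n : ℕ)

/-- sign in `ZMod 3` -/
def s3 (a : ZMod 2) : ZMod 3 := if a = 0 then 1 else -1

theorem s3_add (a b : ZMod 2) : s3 (a + b) = s3 a * s3 b := by revert a b; decide

theorem s3_eq (a : ZMod 2) : s3 a = (sgn a : ℤ) := by revert a; decide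

/-- the quadratic space -/
abbrev V0 := Fin n ⊕ Fin n → ZMod 2

/-- the representation space -/
abbrev W := (Fin n → ZMod 2) → ZMod 3

/-- the cocycle -/
def β : LinearMap.BilinForm (ZMod 2) (V0 n) :=
  LinearMap.mk₂ (ZMod 2) (fun v w => ∑ i, v (.inl i) * w (.inr i))
    (fun a b c => by simp [add_mul, Finset.sum_add_distrib])
    (fun c a b => by simp [Finset.mul_sum, mul_assoc])
    (fun a b c => by simp [mul_add, Finset.sum_add_distrib])
    (fun c a b => by simp [Finset.mul_sum, mul_left_comm])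

/-- the representation as endomorphisms -/
def T0 (e : Heis (β n)) : End (ZMod 3) (W n) where
  toFun f u := s3 (e.a + ∑ i, u i * e.v (.inr i)) * f (u + fun i => e.v (.inl i))
  map_add' f g := by ext u; simp [mul_add]
  map_smul' c f := by ext u; simp [mul_left_comm]

theorem T0_apply (e : Heis (β n)) (f : W n) (u : Fin n → ZMod 2) :
    T0 n e f u = s3 (e.a + ∑ i, u i * e.v (.inr i)) * f (u + fun i => e.v (.inl i)) := rfl

/-- the representation -/
def T : Heis (β n) →* End (ZMod 3) (W n) where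
  toFun := T0 n
  map_one' := by
    ext1 f; ext u
    simp [T0_apply, Heis.one_a, Heis.one_v, s3, show (fun _ : Fin n => (0 : ZMod 2)) = 0 from rfl]
  map_mul' x y := by
    refine LinearMap.ext fun f => funext fun u => ?_
    rw [End.mul_apply, T0_apply, T0_apply, T0_apply, ← mul_assoc, ← s3_add, Heis.mul_a, Heis.mul_v]
    congr 2
    · simp only [β, LinearMap.mk₂_apply, Pi.add_apply, mul_add, add_mul, Finset.sum_add_distrib]
      ring
    · ext i; simp [add_assoc]

theorem T_apply (e : Heis (β n)) (f : W n) (u : Fin n → ZMod 2) :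
    T n e f u = s3 (e.a + ∑ i, u i * e.v (.inr i)) * f (u + fun i => e.v (.inl i)) := rfl

theorem T_eq (e : Heis (β n)) : T n e = s3 e.a • T n ⟨e.v, 0⟩ := by
  refine LinearMap.ext fun f => funext fun u => ?_
  simp [T_apply, s3_add, mul_assoc]

theorem T_z : T n ⟨0, 1⟩ = -1 := by
  rw [T_eq, show (⟨0, 0⟩ : Heis (β n)) = 1 from rfl, map_one]
  exact neg_one_smul (ZMod 3) (1 : End (ZMod 3) (W n))

theorem span_T : ⊤ ≤ Submodule.span (ZMod 3) (Set.range fun v : V0 n => T n ⟨v, 0⟩) := by
  classical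
  rw [← ((Pi.basisFun (ZMod 3) (Fin n → ZMod 2)).linearMap
    (Pi.basisFun (ZMod 3) (Fin n → ZMod 2))).span_eq, Submodule.span_le]
  rintro _ ⟨⟨u0, u1⟩, rfl⟩
  have h2 : IsUnit ((2 : ZMod 3) ^ n) := IsUnit.pow _ (by decide)
  rw [SetLike.mem_coe, ← Submodule.smul_mem_iff _ h2.ne_zero]
  have : (2 : ZMod 3) ^ n • ((Pi.basisFun (ZMod 3) (Fin n → ZMod 2)).linearMap
      (Pi.basisFun (ZMod 3) (Fin n → ZMod 2))) (u0, u1) =
      ∑ y : Fin n → ZMod 2, s3 (∑ i, u0 i * y i) • T n ⟨Sum.elim (u0 + u1) y, 0⟩ := by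
    refine (Pi.basisFun (ZMod 3) (Fin n → ZMod 2)).ext fun w => funext fun u => ?_
    simp only [LinearMap.smul_apply, Basis.linearMap_apply_apply, LinearMap.sum_apply,
      Finset.sum_apply, Pi.smul_apply, T_apply, Sum.elim_inl, Sum.elim_inr, zero_add, smul_eq_mul,
      ← mul_assoc, ← s3_add, ← Finset.sum_add_distrib, ← add_mul, ← Finset.sum_mul]
    by_cases h : u = u0
    · subst h
      have e : (u + fun i => (u + u1) i) = u1 := by
        ext i; simp [← add_assoc, zmod2_add_self]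
      rw [e]
      simp [zmod2_add_self, s3, Pi.single_apply, eq_comm]
      split_ifs <;> simp
    · have h3 : ∑ y : Fin n → ZMod 2, s3 (∑ i, (u0 i + u i) * y i) = 0 := by
        simp only [s3_eq]
        obtain ⟨i, hi⟩ := Function.ne_iff.1 h
        rw [← Int.cast_sum, sum_sgn_eq_zero (fun y : Fin n → ZMod 2 => ∑ i, (u0 i + u i) * y i)
          (fun u v => by simp [mul_add, Finset.sum_add_distrib]) (w := Pi.single i 1) ?_, Int.cast_zero]
        simp only [Pi.single_apply, mul_ite, mul_one, mul_zero, Finset.sum_ite_eq', Finset.mem_univ,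
          if_true]
        revert hi
        generalize u i = a
        generalize u0 i = b
        revert a b
        decide
      rw [h3]
      split_ifs <;> simp [h]
  rw [this]
  exact Submodule.sum_mem _ fun y _ => Submodule.smul_mem _ _ (Submodule.subset_span ⟨_, rfl⟩)

/-- the basis of `End W` given by the group -/
noncomputable def bas : Basis (V0 n) (ZMod 3) (End (ZMod 3) (W n)) :=
  basisOfTopLeSpanOfCardEqFinrank _ (span_T n) (by
    simp [Module.finrank_linearMap, pow_add])

theorem bas_apply (v : V0 n) : bas n v = T n ⟨v, 0⟩ := by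
  simp [bas]

theorem T_injective : Function.Injective (T n) := by
  rw [injective_iff_map_eq_one]
  intro e he
  have h1 : s3 e.a • bas n e.v = bas n 0 := by
    rw [bas_apply, bas_apply, ← T_eq, he]
    exact (map_one (T n)).symm
  have h2 := congrArg (fun x => (bas n).repr x 0) h1
  simp only [map_smul, Basis.repr_self, Finsupp.smul_apply, Finsupp.single_eq_same, smul_eq_mul,
    Finsupp.single_apply] at h2
  split_ifs at h2 with h
  · have h3 : e.a = 0 := by
      revert h2
      generalize e.a = a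
      revert a
      decide
    obtain ⟨v, a⟩ := e
    obtain rfl : v = 0 := h
    obtain rfl : a = 0 := h3
    rfl
  · simp at h2

theorem exists_conj (φ : MulAut (Heis (β n))) (hφ : φ ⟨0, 1⟩ = ⟨0, 1⟩) :
    ∃ g : (End (ZMod 3) (W n))ˣ, ∀ e, (g : End (ZMod 3) (W n)) * T n e * ↑g⁻¹ = T n (φ e) := by
  have key : ∀ φ : MulAut (Heis (β n)), φ ⟨0, 1⟩ = ⟨0, 1⟩ → ∀ e,
      (bas n).constr (ZMod 3) (fun v => T n (φ ⟨v, 0⟩)) (T n e) = T n (φ e) := by
    intro φ hφ e
    rw [T_eq, map_smul, ← bas_apply, Basis.constr_basis]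
    obtain ⟨v, a⟩ := e
    rcases zmod2_cases a with rfl | rfl
    · simp [s3]
    · have : (⟨v, 1⟩ : Heis (β n)) = ⟨v, 0⟩ * ⟨0, 1⟩ := by
        ext <;> simp [Heis.mul_v, Heis.mul_a]
      conv_rhs => rw [this, map_mul, hφ, map_mul, T_z]
      exact (neg_one_smul (ZMod 3) (T n (φ ⟨v, 0⟩))).trans (mul_neg_one (T n (φ ⟨v, 0⟩))).symm
  let L : End (ZMod 3) (W n) ≃ₗ[ZMod 3] End (ZMod 3) (W n) :=
    LinearEquiv.ofLinearMap ((bas n).constr (ZMod 3) fun v => T n (φ ⟨v, 0⟩))
      ((bas n).constr (ZMod 3) fun v => T n (φ⁻¹ ⟨v, 0⟩))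
      ((bas n).ext fun v => by
        rw [LinearMap.comp_apply, Basis.constr_basis, key φ hφ, bas_apply]; simp)
      ((bas n).ext fun v => by
        rw [LinearMap.comp_apply, Basis.constr_basis, key φ⁻¹ (by
          rw [← hφ, MulAut.inv_apply_self, hφ]), bas_apply]; simp)
  have hL : ∀ e, L (T n e) = T n (φ e) := key φ hφ
  have hmul : ∀ x y, L (x * y) = L x * L y := by
    have : (LinearMap.mul (ZMod 3) (End (ZMod 3) (W n))).compr₂ L.toLinearMap =
        (LinearMap.mul (ZMod 3) (End (ZMod 3) (W n))).compl₁₂ L.toLinearMap L.toLinearMap :=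
      LinearMap.ext_basis (bas n) (bas n) fun v w => by
        simp only [LinearMap.compr₂_apply, LinearMap.compl₁₂_apply, LinearMap.mul_apply', bas_apply,
          LinearEquiv.coe_coe, ← map_mul, hL]
    exact fun x y => congrArg (fun f => f x y) this
  obtain ⟨g, hg⟩ := (AlgEquiv.ofLinearEquiv L (by rw [← map_one (T n), hL, map_one, map_one])
    hmul).eq_linearEquivConjAlgEquiv
  refine ⟨LinearMap.GeneralLinearGroup.ofLinearEquiv g, fun e => ?_⟩
  rw [← hL]
  exact (congrArg (fun f => f (T n e)) hg).symm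

theorem eq_of_commute (g : (End (ZMod 3) (W n))ˣ)
    (hg : ∀ e, (g : End (ZMod 3) (W n)) * T n e = T n e * g) : g = 1 ∨ g = -1 := by
  have h1 : (g : End (ZMod 3) (W n)) ∈ Subalgebra.center (ZMod 3) (End (ZMod 3) (W n)) := by
    rw [Subalgebra.mem_center_iff]
    intro x
    have : LinearMap.mulRight (ZMod 3) (g : End (ZMod 3) (W n)) =
        LinearMap.mulLeft (ZMod 3) (g : End (ZMod 3) (W n)) :=
      (bas n).ext fun v => by simp [bas_apply, hg]
    exact congrArg (fun f => f x) this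
  rw [Algebra.IsCentral.center_eq_bot, Algebra.mem_bot] at h1
  obtain ⟨c, hc⟩ := h1
  have : c = 0 ∨ c = 1 ∨ c = -1 := by clear hc; revert c; decide
  rcases this with rfl | rfl | rfl
  · exact absurd (by simpa using hc.symm) g.ne_zero
  · left; ext1; simpa using hc.symm
  · right; exact Units.ext (hc.symm.trans (by rw [map_neg, map_one]; rfl))

end Cliff

open Cliff in
theorem exists_clifford (n : ℕ) (hn : 1 ≤ n) : ∃ (N : Type) (_ : Group N) (_ : Finite N)
    (Q : Subgroup N) (hQ : Q.Normal) (z : Q) (P : Pres Q z (Fin n ⊕ Fin n → ZMod 2))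
    (θ : N →* ((Fin n ⊕ Fin n → ZMod 2) ≃ₗ[ZMod 2] (Fin n ⊕ Fin n → ZMod 2))),
    ES (⊤ : Subgroup Q) z ∧ ⇑P.q = quadFormPlus n (ZMod 2) ∧ θ.ker = Q ∧
      (∀ σ, σ ∈ θ.range ↔ ∀ v, P.q (σ v) = P.q v) ∧
      ∀ (g : N) (x : Q), P.π ⟨g * x * g⁻¹, hQ.conj_mem _ x.2 g⟩ = θ g (P.π x) := by
  let T' := (T n).toHomUnits
  have hT' : Function.Injective T' := fun a b h => T_injective n (congrArg Units.val h)
  let N := normalizer (T'.range : Set (End (ZMod 3) (W n))ˣ)
  let Q := T'.range.subgroupOf N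
  have hQ : Q.Normal := normal_in_normalizer
  let e : Heis (β n) ≃* Q := (MonoidHom.ofInjective hT').trans (subgroupOfEquivOfLe le_normalizer).symm
  have he : ∀ x, ((e x : Q) : N).1.1 = T n x := fun _ => rfl
  let P := (Heis.pres (β n)).congr e
  have hq : ⇑P.q = quadFormPlus n (ZMod 2) := rfl
  have : Nonempty (Fin n) := ⟨⟨0, hn⟩⟩
  have hz : ES (⊤ : Subgroup Q) (e ⟨0, 1⟩) := P.ES_top (by
    rw [hq, ← H66.coe_qPlus]; exact (H66.qPlus_nd n).1)
  have : Finite (End (ZMod 3) (W n)) := Finite.of_injective _ DFunLike.coe_injective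
  refine ⟨N, inferInstance, inferInstance, Q, hQ, _, P, (P.autHom hz).comp MulAut.conjNormal, hz, hq,
    ?_, fun σ => ?_, fun g x => (P.autHom_π hz (MulAut.conjNormal g) x).symm⟩
  · ext g
    rw [← MonoidHom.comap_ker, P.ker_autHom, mem_comap]
    constructor
    · rintro ⟨x, hx⟩
      have h1 := eq_of_commute n (x.1.1⁻¹ * g.1) fun y => by
        have h2 := congrArg (fun φ : MulAut Q => ((φ (e y) : Q) : N).1) hx
        simp only [MulAut.conj_apply, MulAut.conjNormal_apply, Subgroup.coe_mul, Subgroup.coe_inv] at h2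
        rw [← he, ← Units.val_mul, ← Units.val_mul]
        congr 1
        calc x.1.1⁻¹ * g.1 * (e y).1.1 = x.1.1⁻¹ * (g.1 * (e y).1.1 * g.1⁻¹) * g.1 := by group
          _ = (e y).1.1 * (x.1.1⁻¹ * g.1) := by rw [← h2]; group
      have h3 : x.1⁻¹ * g ∈ Q := by
        change x.1.1⁻¹ * g.1 ∈ T'.range
        rcases h1 with h | h <;> rw [h]
        · exact one_mem _
        · exact ⟨⟨0, 1⟩, Units.ext (T_z n)⟩
      simpa using Q.mul_mem x.2 h3
    · intro hg
      exact ⟨⟨g, hg⟩, MulEquiv.ext fun x => rfl⟩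
  · rw [← P.mem_range_autHom hz]
    constructor
    · rintro ⟨g, rfl⟩
      exact ⟨_, rfl⟩
    · rintro ⟨φ, rfl⟩
      obtain ⟨g, hg⟩ := exists_conj n (e.trans (φ.trans e.symm)) (by
        simp [hz.map_z φ])
      have hg' : ∀ y, g * T' y * g⁻¹ = T' (e.symm (φ (e y))) := fun y => Units.ext (hg y)
      have hN : g ∈ N := by
        apply mem_normalizer_fintype
        rintro _ ⟨y, rfl⟩
        exact ⟨_, (hg' y).symm⟩
      refine ⟨⟨g, hN⟩, congrArg (P.autHom hz) (MulEquiv.ext fun x => ?_)⟩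
      obtain ⟨y, rfl⟩ := e.surjective x
      apply Subtype.ext
      apply Subtype.ext
      rw [← e.apply_symm_apply (φ (e y))]
      exact hg' y

end H95
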